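import Cfsg.Agent.Lib.Helper13.Asch.Defs3

set_option autoImplicit false

/-! # Subgroup structure of the symplectic groups: shared vocabulary -/

namespace Cfsg.Agent.Lib.Helper90.Sp

open Cfsg Cfsg.Geo Matrix Cfsg.Agent.Lib.Helper13.Asch
open scoped Kronecker MatrixGroups

variable {ι : Type} [Fintype ι] [DecidableEq ι] {F : Type*} [Field F]

/-- `H` fixes a non-degenerate quadratic form polarising to `f` -/
def HasQuad (f : (ι → F) → (ι → F) → F) (H : Subgroup (GL ι F)) : Prop :=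
  ∃ Q : (ι → F) → F, IsNondegenerateQuadraticForm Q ∧ (∀ u v, QuadraticMap.polar Q u v = f u v) ∧
    FixesQuadForm (matrixSet H) Q

/-- `H` lies in a member of one of the eight classes of the symplectic case for the form `f`; the
same list as `InSymplecticClass`, stated for `H` directly, on any index type, with the extra
information `card ι = 2 ^ k` in class 6 -/
def SpCls [Fintype F] (f : (ι → F) → (ι → F) → F) (H : Subgroup (GL ι F)) : Prop :=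
  (∃ W : Submodule F (ι → F), W ≠ ⊥ ∧ IsTotallySingularFor f W ∧ H ≤ subspaceStabilizer W) ∨
  (∃ W : Submodule F (ι → F), W ≠ ⊥ ∧ IsNondegenerateOn f W ∧
      2 * Module.finrank F W < Fintype.card ι ∧ H ≤ subspaceStabilizer W) ∨
  (∃ (t k : ℕ) (D : Fin t → Submodule F (ι → F)), IsNondegenerateMDecomposition f k D ∧
      H ≤ decompositionStabilizer D) ∨
  (∃ (k : ℕ) (D : Fin 2 → Submodule F (ι → F)), Odd (Fintype.card F) ∧ IsMDecomposition k D ∧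
      (∀ i, IsTotallySingularFor f (D i)) ∧ H ≤ decompositionStabilizer D) ∨
  (∃ (F₀ : Subfield F) (r : ℕ) (P : GL ι F) (ζ : F), r.Prime ∧ Fintype.card F = Nat.card F₀ ^ r ∧
      ζ ≠ 0 ∧ IsFormRationalStructure f F₀ ζ P ∧ H ≤ subfieldSubgroup F₀ P) ∨
  (∃ (R : Subgroup (GL ι F)) (p k : ℕ), IsSymplecticTypeGroup 2 R ∧
      ActsAbsolutelyIrreducibly (matrixSet R) ∧ R ≤ similarityGroup f ∧ p.Prime ∧ Odd p ∧
      Fintype.card F = p ∧ Nat.card R = 2 ^ (1 + 2 * k) ∧ Nat.card (Subgroup.center R) = 2 ∧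
      IsOfMinusType k R ∧ Fintype.card ι = 2 ^ k ∧ H ≤ subgroupNormalizer R) ∨
  (∃ Q : (ι → F) → F, ¬ Odd (Fintype.card F) ∧ IsNondegenerateQuadraticForm Q ∧
      (∀ u v, QuadraticMap.polar Q u v = f u v) ∧ H ≤ quadSimilarityGroup Q) ∨
  (∃ (r : ℕ) (K : Subalgebra F (Matrix ι ι F)), r.Prime ∧ IsFieldSubalgebra r K ∧
      IsSelfAdjointFor f K ∧ (∀ k ∈ K, ∀ v, f (k *ᵥ v) v = 0) ∧ H ≤ subalgebraNormalizer K) ∨
  (∃ K : Subalgebra F (Matrix ι ι F), Odd (Fintype.card F) ∧ IsFieldSubalgebra 2 K ∧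
      IsAdjointClosedFor f K ∧ ¬ IsSelfAdjointFor f K ∧ H ≤ subalgebraNormalizer K) ∨
  (∃ (n₁ n₂ : ℕ) (e : ι ≃ Fin n₁ × Fin n₂) (P : GL ι F)
      (f₁ : (Fin n₁ → F) → (Fin n₁ → F) → F) (f₂ : (Fin n₂ → F) → (Fin n₂ → F) → F),
      Odd (Fintype.card F) ∧ 3 ≤ n₂ ∧ IsSymplecticForm f₁ ∧ IsSymmetricForm f₂ ∧
      IsTensorFormStructure id f f₁ f₂ e P ∧ H ≤ tensorProductSubgroup n₁ n₂ e P) ∨
  (∃ (k t : ℕ) (e : ι ≃ (Fin t → Fin k)) (P : GL ι F) (f₁ : (Fin k → F) → (Fin k → F) → F),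
      Odd (Fintype.card F) ∧ Odd t ∧ 3 ≤ t ∧ ¬ (Fintype.card F = 3 ∧ k = 2) ∧ IsSymplecticForm f₁ ∧
      IsTensorPowerFormStructure id f f₁ e P ∧ H ≤ tensorWreathSubgroup k t e P)

/-- `x` is a primitive idempotent of the (commutative) subalgebra `Z` -/
def IsPrimIdem (Z : Subalgebra F (Matrix ι ι F)) (x : Matrix ι ι F) : Prop :=
  x ∈ Z ∧ x * x = x ∧ x ≠ 0 ∧ ∀ y ∈ Z, y * y = y → x * y = y → y = 0 ∨ y = x

/-- `Y ↦ P (1 ⊗ Y) P⁻¹` -/
def embR {a b : ℕ} (e : ι ≃ Fin a × Fin b) (P : GL ι F) (Y : Matrix (Fin b) (Fin b) F) :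
    Matrix ι ι F :=
  (P : Matrix ι ι F) * Matrix.reindex e.symm e.symm ((1 : Matrix (Fin a) (Fin a) F) ⊗ₖ Y) *
    ((P⁻¹ : GL ι F) : Matrix ι ι F)

/-- in the coordinates `(e, P)` the form `f` has Gram matrix `G₁ ⊗ G₂` -/
def TensGram (f : (ι → F) → (ι → F) → F) {a b : ℕ} (e : ι ≃ Fin a × Fin b) (P : GL ι F)
    (G₁ : Matrix (Fin a) (Fin a) F) (G₂ : Matrix (Fin b) (Fin b) F) : Prop :=
  ∀ x y : Fin a × Fin b → F,
    f ((P : Matrix ι ι F) *ᵥ (x ∘ e)) ((P : Matrix ι ι F) *ᵥ (y ∘ e)) = formOfGram id (G₁ ⊗ₖ G₂) x y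

/-- the centre of the enveloping algebra -/
def cenv (N : Subgroup (GL ι F)) : Subalgebra F (Matrix ι ι F) :=
  env N ⊓ Subalgebra.centralizer F (env N : Set (Matrix ι ι F))

end Cfsg.Agent.Lib.Helper90.Sp
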