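import Cfsg.Agent.Lib.Helper90.Sp.Defs

set_option autoImplicit false

/-! # Maximal subgroups of the symplectic groups: the refined list -/

namespace Cfsg.Agent.Lib.Helper90.Sp

open Cfsg Cfsg.Geo Matrix Cfsg.Agent.Lib.Helper13.Asch
open scoped Kronecker MatrixGroups

variable {F : Type*} [Field F]

/-- `H` IS (the intersection with `Sp_2m(F)` of) a member of one of the eight classes, with the
arithmetic information needed to match the lists in small dimensions -/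
def SpMaxCls [Fintype F] (m : ℕ) (H : Subgroup (GL (Fin m ⊕ Fin m) F)) : Prop :=
  (∃ W : Submodule F (Fin m ⊕ Fin m → F), W ≠ ⊥ ∧ IsTotallySingularFor (sympForm m F) W ∧
      H = subspaceStabilizer W ⊓ spGL m F) ∨
  (∃ W : Submodule F (Fin m ⊕ Fin m → F), W ≠ ⊥ ∧ IsNondegenerateOn (sympForm m F) W ∧
      Module.finrank F W < m ∧ H = subspaceStabilizer W ⊓ spGL m F) ∨
  (∃ (t k : ℕ) (D : Fin t → Submodule F (Fin m ⊕ Fin m → F)),
      IsNondegenerateMDecomposition (sympForm m F) k D ∧ t * k = 2 * m ∧ Even k ∧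
      ¬ (Fintype.card F = 2 ∧ k = 2) ∧ H = decompositionStabilizer D ⊓ spGL m F) ∨
  (∃ D : Fin 2 → Submodule F (Fin m ⊕ Fin m → F), Odd (Fintype.card F) ∧ IsMDecomposition m D ∧
      (∀ i, IsTotallySingularFor (sympForm m F) (D i)) ∧
      H = decompositionStabilizer D ⊓ spGL m F) ∨
  (∃ (F₀ : Subfield F) (r : ℕ) (P : GL (Fin m ⊕ Fin m) F) (ζ : F), r.Prime ∧
      Fintype.card F = Nat.card F₀ ^ r ∧ ζ ≠ 0 ∧ IsFormRationalStructure (sympForm m F) F₀ ζ P ∧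
      H = subfieldSubgroup F₀ P ⊓ spGL m F) ∨
  (∃ (R : Subgroup (GL (Fin m ⊕ Fin m) F)) (p k : ℕ), IsSymplecticTypeGroup 2 R ∧
      ActsAbsolutelyIrreducibly (matrixSet R) ∧ R ≤ similarityGroup (sympForm m F) ∧ p.Prime ∧
      Odd p ∧ Fintype.card F = p ∧ Nat.card R = 2 ^ (1 + 2 * k) ∧
      Nat.card (Subgroup.center R) = 2 ∧ IsOfMinusType k R ∧ 2 * m = 2 ^ k ∧
      H = subgroupNormalizer R ⊓ spGL m F) ∨
  (∃ Q : (Fin m ⊕ Fin m → F) → F, ¬ Odd (Fintype.card F) ∧ IsNondegenerateQuadraticForm Q ∧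
      (∀ u v, QuadraticMap.polar Q u v = sympForm m F u v) ∧
      H = quadSimilarityGroup Q ⊓ spGL m F) ∨
  (∃ (r : ℕ) (K : Subalgebra F (Matrix (Fin m ⊕ Fin m) (Fin m ⊕ Fin m) F)), r.Prime ∧ r ∣ m ∧
      IsFieldSubalgebra r K ∧ IsSelfAdjointFor (sympForm m F) K ∧
      (∀ k ∈ K, ∀ v, sympForm m F (k *ᵥ v) v = 0) ∧ H = subalgebraNormalizer K ⊓ spGL m F) ∨
  (∃ K : Subalgebra F (Matrix (Fin m ⊕ Fin m) (Fin m ⊕ Fin m) F), Odd (Fintype.card F) ∧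
      IsFieldSubalgebra 2 K ∧ IsAdjointClosedFor (sympForm m F) K ∧
      ¬ IsSelfAdjointFor (sympForm m F) K ∧ H = subalgebraNormalizer K ⊓ spGL m F) ∨
  (∃ (n₁ n₂ : ℕ) (e : (Fin m ⊕ Fin m) ≃ Fin n₁ × Fin n₂) (P : GL (Fin m ⊕ Fin m) F)
      (f₁ : (Fin n₁ → F) → (Fin n₁ → F) → F) (f₂ : (Fin n₂ → F) → (Fin n₂ → F) → F),
      Odd (Fintype.card F) ∧ 3 ≤ n₂ ∧ Even n₁ ∧ n₁ * n₂ = 2 * m ∧
      ¬ (Fintype.card F = 3 ∧ n₂ = 3) ∧ IsSymplecticForm f₁ ∧ IsSymmetricForm f₂ ∧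
      IsTensorFormStructure id (sympForm m F) f₁ f₂ e P ∧
      H = tensorProductSubgroup n₁ n₂ e P ⊓ spGL m F) ∨
  (∃ (k t : ℕ) (e : (Fin m ⊕ Fin m) ≃ (Fin t → Fin k)) (P : GL (Fin m ⊕ Fin m) F)
      (f₁ : (Fin k → F) → (Fin k → F) → F), Odd (Fintype.card F) ∧ Odd t ∧ 3 ≤ t ∧ k ^ t = 2 * m ∧
      ¬ (Fintype.card F = 3 ∧ k = 2) ∧ IsSymplecticForm f₁ ∧
      IsTensorPowerFormStructure id (sympForm m F) f₁ e P ∧
      H = tensorWreathSubgroup k t e P ⊓ spGL m F)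

end Cfsg.Agent.Lib.Helper90.Sp
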